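import Cfsg.Agent.Lib.LargeExtra.Setting

/-!
The split extension of the extraspecial group `2^(1+2n)` of plus type by `SL_n(2)`.
-/

set_option autoImplicit false

namespace H73.LX

open Cfsg Subgroup H95 Matrix

theorem slm {n : ℕ} (A B : Matrix.SpecialLinearGroup (Fin n) (ZMod 2)) :
    (A * B).1 = A.1 * B.1 := rfl

theorem sl1 {n : ℕ} : (1 : Matrix.SpecialLinearGroup (Fin n) (ZMod 2)).1 = 1 := rfl

/-- coordinates of the centraliser of a transvection -/
@[ext] structure HB (n : ℕ) where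
  c : ZMod 2
  a : Fin n → ZMod 2
  b : Fin n → ZMod 2
  A : Matrix.SpecialLinearGroup (Fin n) (ZMod 2)

namespace HB

variable {n : ℕ}

instance : Mul (HB n) :=
  ⟨fun g h => ⟨g.c + h.c + g.a ⬝ᵥ h.b, h.a + g.a ᵥ* h.A.1, g.b + g.A.1 *ᵥ h.b, g.A * h.A⟩⟩

instance : One (HB n) := ⟨⟨0, 0, 0, 1⟩⟩

instance : Inv (HB n) :=
  ⟨fun g => ⟨-g.c + g.a ⬝ᵥ (g.A⁻¹.1 *ᵥ g.b), -(g.a ᵥ* g.A⁻¹.1), -(g.A⁻¹.1 *ᵥ g.b), g.A⁻¹⟩⟩

theorem mul_c (g h : HB n) : (g * h).c = g.c + h.c + g.a ⬝ᵥ h.b := rfl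
theorem mul_a (g h : HB n) : (g * h).a = h.a + g.a ᵥ* h.A.1 := rfl
theorem mul_b (g h : HB n) : (g * h).b = g.b + g.A.1 *ᵥ h.b := rfl
theorem mul_A (g h : HB n) : (g * h).A = g.A * h.A := rfl
theorem one_c : (1 : HB n).c = 0 := rfl
theorem one_a : (1 : HB n).a = 0 := rfl
theorem one_b : (1 : HB n).b = 0 := rfl
theorem one_A : (1 : HB n).A = 1 := rfl
theorem inv_c (g : HB n) : g⁻¹.c = -g.c + g.a ⬝ᵥ (g.A⁻¹.1 *ᵥ g.b) := rfl
theorem inv_a (g : HB n) : g⁻¹.a = -(g.a ᵥ* g.A⁻¹.1) := rfl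
theorem inv_b (g : HB n) : g⁻¹.b = -(g.A⁻¹.1 *ᵥ g.b) := rfl
theorem inv_A (g : HB n) : g⁻¹.A = g.A⁻¹ := rfl

instance : Group (HB n) :=
  Group.ofLeftAxioms
    (fun g h k => HB.ext
      (by
        simp only [mul_c, mul_a, mul_b, add_dotProduct, dotProduct_add, dotProduct_mulVec]
        ring)
      (by
        simp only [mul_a, mul_A, add_vecMul, vecMul_vecMul, slm, add_assoc])
      (by
        simp only [mul_b, mul_A, mulVec_add, mulVec_mulVec, slm, add_assoc])
      (mul_assoc _ _ _))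
    (fun g => HB.ext (by simp [mul_c, one_c, one_a]) (by simp [mul_a, one_a])
      (by simp [mul_b, one_b, one_A]) (one_mul _))
    (fun g => HB.ext
      (by
        simp only [mul_c, inv_c, inv_a, one_c, neg_dotProduct, dotProduct_mulVec]
        ring)
      (by
        simp only [mul_a, inv_a, one_a, neg_vecMul, vecMul_vecMul, ← slm,
          inv_mul_cancel, sl1, vecMul_one, add_neg_cancel])
      (by simp only [mul_b, inv_b, inv_A, one_b, neg_add_cancel])
      (inv_mul_cancel _))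

/-- the central involution -/
def zz (n : ℕ) : HB n := ⟨1, 0, 0, 1⟩

theorem zz_c : (zz n).c = 1 := rfl
theorem zz_a : (zz n).a = 0 := rfl
theorem zz_b : (zz n).b = 0 := rfl
theorem zz_A : (zz n).A = 1 := rfl

/-- the projection onto the linear group -/
def pr (n : ℕ) : HB n →* Matrix.SpecialLinearGroup (Fin n) (ZMod 2) where
  toFun g := g.A
  map_one' := rfl
  map_mul' _ _ := rfl

/-- the complement -/
def sec (n : ℕ) : Matrix.SpecialLinearGroup (Fin n) (ZMod 2) →* HB n where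
  toFun A := ⟨0, 0, 0, A⟩
  map_one' := rfl
  map_mul' A B := HB.ext (by simp [mul_c]) (by simp [mul_a]) (by simp [mul_b]) rfl

theorem sec_A (A : Matrix.SpecialLinearGroup (Fin n) (ZMod 2)) : (sec n A).A = A := rfl

theorem mem_ker {g : HB n} : g ∈ (pr n).ker ↔ g.A = 1 := Iff.rfl

theorem zz_comm (g : HB n) : g * zz n = zz n * g :=
  HB.ext (by simp [mul_c, zz_a, zz_b, add_comm]) (by simp [mul_a, zz_a, zz_A])
    (by simp [mul_b, zz_b, zz_A]) (by simp [mul_A, zz_A])

theorem zmod2 (x y : ZMod 2) : x = y ∨ x = y + 1 := by revert x y; decide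

theorem eq_of_cent {g : HB n} (h : ∀ x : HB n, x.A = 1 → x * g = g * x) : g = 1 ∨ g = zz n := by
  have hA : g.A = 1 := by
    apply Subtype.ext
    ext i j
    have := congrFun (congrArg HB.b (h ⟨0, 0, Pi.single j 1, 1⟩ rfl)) i
    simp only [mul_b, sl1, one_mulVec, mulVec_single_one, Pi.add_apply,
      add_comm (g.b i), add_left_inj] at this
    rw [sl1, one_apply, show g.A.1 i j = g.A.1.col j i from rfl, ← this,
      Pi.single_apply]
  have ha : g.a = 0 := by
    ext j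
    have := congrArg HB.c (h ⟨0, 0, Pi.single j 1, 1⟩ rfl)
    simpa [mul_c] using this
  have hb : g.b = 0 := by
    ext j
    have := congrArg HB.c (h ⟨0, Pi.single j 1, 0, 1⟩ rfl)
    simpa [mul_c] using this
  rcases zmod2 g.c 0 with e | e
  · exact Or.inl (HB.ext e ha hb hA)
  · exact Or.inr (HB.ext (by rw [e, zero_add, zz_c]) ha hb hA)

theorem es (hn : 1 ≤ n) : ES (pr n).ker (zz n) where
  mem := rfl
  ne_one := fun e => by
    have := congrArg HB.c e
    rw [zz_c, one_c] at this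
    exact one_ne_zero this
  sq := HB.ext (by simp only [mul_c, zz_c, zz_a, one_c, zero_dotProduct]; decide)
    (by simp [mul_a, zz_a, one_a]) (by simp [mul_b, zz_b, one_b]) (by simp [mul_A, zz_A, one_A])
  central := fun x _ => zz_comm x
  comm := fun x hx y hy => by
    rw [mem_ker] at hx hy
    have ea : (x * y).a = (y * x).a := by simp [mul_a, hx, hy, add_comm]
    have eb : (x * y).b = (y * x).b := by simp [mul_b, hx, hy, add_comm]
    have eA : (x * y).A = (y * x).A := by simp [mul_A, hx, hy]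
    rcases zmod2 (x * y).c (y * x).c with e | e
    · exact Or.inl (HB.ext e ea eb eA)
    · refine Or.inr (HB.ext ?_ ?_ ?_ ?_)
      · rw [e, mul_c (y * x), zz_c, zz_b, dotProduct_zero, add_zero]
      · rw [ea, mul_a (y * x), zz_a, zz_A]; simp
      · rw [eb, mul_b (y * x), zz_b]; simp
      · rw [eA, mul_A (y * x), zz_A, mul_one]
  nondeg := fun x _ h => eq_of_cent (fun y hy => (h y hy).symm)
  nonab := ⟨⟨0, Pi.single ⟨0, hn⟩ 1, 0, 1⟩, rfl, ⟨0, 0, Pi.single ⟨0, hn⟩ 1, 1⟩, rfl, fun e => by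
    have := congrArg HB.c e
    simp [mul_c] at this⟩

theorem card_ker : Nat.card (pr n).ker = 2 ^ (2 * n + 1) := by
  let e : (pr n).ker ≃ ZMod 2 × (Fin n → ZMod 2) × (Fin n → ZMod 2) :=
    { toFun := fun g => (g.1.c, g.1.a, g.1.b)
      invFun := fun p => ⟨⟨p.1, p.2.1, p.2.2, 1⟩, rfl⟩
      left_inv := fun g => Subtype.ext (HB.ext rfl rfl rfl (mem_ker.1 g.2).symm)
      right_inv := fun _ => rfl }
  rw [Nat.card_congr e]
  simp only [Nat.card_prod, Nat.card_fun, Nat.card_zmod, Nat.card_fin]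
  ring

/-- the translations -/
def tr (n : ℕ) : Subgroup (HB n) where
  carrier := {g | g.A = 1 ∧ g.a = 0}
  one_mem' := ⟨rfl, rfl⟩
  mul_mem' := fun {g h} hg hh => ⟨by rw [mul_A, hg.1, hh.1, mul_one], by
    rw [mul_a, hg.2, hh.2]; simp⟩
  inv_mem' := fun {g} hg => ⟨by rw [inv_A, hg.1, inv_one], by rw [inv_a, hg.2]; simp⟩

theorem card_tr : Nat.card (tr n) = 2 ^ (n + 1) := by
  let e : tr n ≃ ZMod 2 × (Fin n → ZMod 2) :=
    { toFun := fun g => (g.1.c, g.1.b)
      invFun := fun p => ⟨⟨p.1, 0, p.2, 1⟩, rfl, rfl⟩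
      left_inv := fun g => Subtype.ext (HB.ext rfl g.2.2.symm rfl g.2.1.symm)
      right_inv := fun _ => rfl }
  rw [Nat.card_congr e]
  simp only [Nat.card_prod, Nat.card_fun, Nat.card_zmod, Nat.card_fin]
  ring

theorem tr_comm {g h : HB n} (hg : g ∈ tr n) (hh : h ∈ tr n) : g * h = h * g :=
  HB.ext (by simp [mul_c, hg.2, hh.2, add_comm]) (by simp [mul_a, hg.2, hh.2])
    (by simp [mul_b, hg.1, hh.1, add_comm]) (by simp [mul_A, hg.1, hh.1])

theorem tr_sq {g : HB n} (hg : g ∈ tr n) : g * g = 1 :=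
  HB.ext (by simp [mul_c, hg.2, one_c, CharTwo.add_self_eq_zero]) (by simp [mul_a, hg.2, one_a])
    (by
      ext i
      simp [mul_b, hg.1, one_b, CharTwo.add_self_eq_zero]) (by simp [mul_A, hg.1, one_A])

end HB

/-- `SL_n(2)` has no non-trivial normal `2`-subgroup. -/
theorem pCore_SL (n : ℕ) : pCore 2 (Matrix.SpecialLinearGroup (Fin n) (ZMod 2)) = ⊥ := by
  rw [H1.pCore_eq_bot_iff]
  intro N hN hp
  rcases Nat.eq_zero_or_pos n with rfl | hn
  · exact eq_bot_iff.2 fun x _ => mem_bot.2 (Subtype.ext (Subsingleton.elim _ _))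
  let _ : MulAction N (Fin n → ZMod 2) :=
    { smul := fun g v => g.1.1 *ᵥ v
      one_smul := fun v => one_mulVec v
      mul_smul := fun g h v => (mulVec_mulVec v g.1.1 h.1.1).symm }
  have h0 : (0 : Fin n → ZMod 2) ∈ MulAction.fixedPoints N (Fin n → ZMod 2) :=
    fun g => mulVec_zero g.1.1
  obtain ⟨v, hv, hne⟩ := hp.exists_fixed_point_of_prime_dvd_card_of_fixed_point (Fin n → ZMod 2)
    (by
      simp only [Nat.card_fun, Nat.card_zmod, Nat.card_fin]
      exact dvd_pow_self 2 hn.ne') h0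
  have hv' : ∀ g ∈ N, g.1 *ᵥ v = v := fun g hg => hv ⟨g, hg⟩
  have hmove : ∀ (t : Matrix.SpecialLinearGroup (Fin n) (ZMod 2)), ∀ g ∈ N,
      g.1 *ᵥ (t.1 *ᵥ v) = t.1 *ᵥ v := by
    intro t g hg
    have := hv' _ (hN.conj_mem' g hg t)
    rw [mulVec_mulVec, ← slm,
      show g * t = t * (t⁻¹ * g * t) by group, slm, ← mulVec_mulVec, this]
  obtain ⟨i, hi⟩ : ∃ i, v i = 1 := by
    by_contra hno
    push Not at hno
    apply hne
    ext i
    rcases HB.zmod2 (v i) 0 with e | e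
    · exact e.symm
    · exact absurd (by rw [e, zero_add]) (hno i)
  have hj : ∀ j, j ≠ i → ∀ g ∈ N, g.1 *ᵥ Pi.single j 1 = Pi.single j 1 := by
    intro j hj g hg
    have e := hmove ⟨transvection j i 1, det_transvection_of_ne j i hj 1⟩ g hg
    have e1 : transvection j i (1 : ZMod 2) *ᵥ v = v + Pi.single j 1 := by
      rw [transvection, add_mulVec, one_mulVec, single_mulVec, hi, mul_one]
      rfl
    simp only [e1, mulVec_add, hv' g hg, add_right_inj] at e
    exact e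
  have hall : ∀ j, ∀ g ∈ N, g.1 *ᵥ Pi.single j 1 = Pi.single j 1 := by
    intro j g hg
    by_cases e : j = i
    · subst e
      have e1 : (Pi.single j 1 : Fin n → ZMod 2) =
          v - ∑ k ∈ Finset.univ.erase j, v k • (Pi.single k 1 : Fin n → ZMod 2) := by
        rw [eq_sub_iff_add_eq]
        conv_rhs => rw [pi_eq_sum_univ' v, ← Finset.add_sum_erase _ _ (Finset.mem_univ j), hi,
          one_smul]
      rw [e1, mulVec_sub, hv' g hg, mulVec_sum]
      congr 1
      refine Finset.sum_congr rfl fun k hk => ?_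
      rw [mulVec_smul, hj k (Finset.ne_of_mem_erase hk) g hg]
    · exact hj j e g hg
  rw [eq_bot_iff]
  intro g hg
  rw [mem_bot]
  apply Subtype.ext
  ext a b
  have := congrFun (hall b g hg) a
  rw [mulVec_single_one] at this
  rw [sl1, one_apply, show g.1 a b = g.1.col b a from rfl, this,
    Pi.single_apply]

theorem pCore_HB {n : ℕ} (hn : 1 ≤ n) : pCore 2 (HB n) = (HB.pr n).ker :=
  le_antisymm (pCore_le_ker (fun A => ⟨HB.sec n A, rfl⟩) (pCore_SL n))
    (H1.le_pCore (HB.es hn).isPGroup)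

/-- The structure of a centraliser isomorphic to `HB n`. -/
theorem concl {G : Type*} [Group G] {n : ℕ} (hn : 1 ≤ n) (ι : HB n →* G)
    (hι : Function.Injective ι) {z : G} (hz : ι (HB.zz n) = z)
    (hr : ι.range = centralizer ({z} : Set G)) {Q : Subgroup G}
    (hQ : Q = (pCore 2 (centralizer ({z} : Set G))).map (centralizer ({z} : Set G)).subtype) :
    L3 Q z ∧ (∀ g : HB n, g.A = 1 → ι g ∈ Q) ∧ Nat.card Q = 2 ^ (2 * n + 1) ∧
      (∃ E : Subgroup G, E ≤ Q ∧ IsElementaryAbelian 2 E ∧ Nat.card E = 2 ^ (n + 1)) ∧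
      ∃ K : Subgroup G, K ≤ centralizer ({z} : Set G) ∧ Q ⊓ K = ⊥ ∧
        Q ⊔ K = centralizer ({z} : Set G) ∧
        Nonempty (K ≃* Matrix.SpecialLinearGroup (Fin n) (ZMod 2)) := by
  have e : Q = (HB.pr n).ker.map ι := by
    rw [hQ, ← H1.pCoreOf_def, ← hr, MonoidHom.range_eq_map, ← H1.map_pCoreOf_of_injective hι,
      H1.pCoreOf_top, pCore_HB hn]
  have hes : ES Q z := by
    rw [e, ← hz]
    exact (HB.es hn).map ι (fun x _ h => hι (by rw [h, map_one]))
  have hsi : Function.Injective (HB.sec n) := fun A B h => congrArg HB.A h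
  refine ⟨⟨hes, fun g hg => ?_, fun g hg => ?_⟩, fun g hg => e ▸ ⟨g, hg, rfl⟩, ?_,
    ⟨(HB.tr n).map ι, ?_, ⟨⟨⟨?_⟩⟩, ?_⟩, ?_⟩, (HB.sec n).range.map ι, ?_, ?_, ?_, ?_⟩
  · have : g ∈ ι.range := by rw [hr]; exact mem_cent_iff.2 (hg z hes.mem).symm
    obtain ⟨k, rfl⟩ := this
    rcases HB.eq_of_cent (g := k) (fun x hx => hι (by
      rw [map_mul, map_mul]; exact hg _ (e ▸ ⟨x, hx, rfl⟩))) with f | f
    · left; rw [f, map_one]
    · right; rw [f, hz]
  · have : g ∈ ι.range := by rw [hr]; exact mem_cent_iff.2 hg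
    obtain ⟨k, rfl⟩ := this
    rw [e]
    refine mem_normalizer_of_conj ?_ ?_ <;> rintro _ ⟨y, hy, rfl⟩
    · exact ⟨_, (HB.pr n).normal_ker.conj_mem y hy k, by simp⟩
    · exact ⟨_, (HB.pr n).normal_ker.conj_mem' y hy k, by simp⟩
  · rw [e, card_map_of_injective hι, HB.card_ker]
  · rw [e]; exact map_mono fun g hg => hg.1
  · rintro ⟨_, a, ha, rfl⟩ ⟨_, b, hb, rfl⟩
    apply Subtype.ext
    show ι a * ι b = ι b * ι a
    rw [← map_mul, ← map_mul, HB.tr_comm ha hb]
  · rintro _ ⟨a, ha, rfl⟩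
    rw [pow_two, ← map_mul, HB.tr_sq ha, map_one]
  · rw [card_map_of_injective hι, HB.card_tr]
  · rw [← hr]; exact map_le_range _ _
  · rw [e, ← map_inf _ _ _ hι, Subgroup.map_eq_bot_iff_of_injective _ hι, eq_bot_iff]
    rintro _ ⟨h1, A, rfl⟩
    have : A = 1 := h1
    rw [this, map_one]
    exact one_mem _
  · rw [e, ← Subgroup.map_sup, ← hr, MonoidHom.range_eq_map ι]
    congr 1
    rw [eq_top_iff]
    intro g _
    have e1 : g = (g * (HB.sec n g.A)⁻¹) * HB.sec n g.A := by group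
    rw [e1]
    refine mul_mem (mem_sup_left ?_) (mem_sup_right ⟨_, rfl⟩)
    rw [HB.mem_ker, HB.mul_A, HB.inv_A, HB.sec_A, mul_inv_cancel]
  · exact ⟨(equivMapOfInjective _ ι hι).symm.trans (MonoidHom.ofInjective hsi).symm⟩

theorem auto_lemmas_heis : True := by
  have := @HB.zz.eq_1
  have := @HB.pr.eq_1
  have := @HB.sec.eq_1
  have := @HB.tr.eq_1
  trivial

end H73.LX
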