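import Mathlib

/-!
Lattices in coordinates given by a frame: the code and the count of minimal vectors.
-/

set_option autoImplicit false

namespace H73.Lch

open Finset

variable {ι : Type*} [Fintype ι] [DecidableEq ι]

/-- An even lattice without roots, in the coordinates of a frame (scale `8`). -/
structure PreL (Λ : AddSubgroup (ι → ℤ)) : Prop where
  dot : ∀ x ∈ Λ, ∀ y ∈ Λ, (8 : ℤ) ∣ ∑ i, x i * y i
  sq : ∀ x ∈ Λ, (16 : ℤ) ∣ ∑ i, x i ^ 2
  min : ∀ x ∈ Λ, x ≠ 0 → 32 ≤ ∑ i, x i ^ 2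
  e8 : ∀ i, Pi.single i 8 ∈ Λ
  e4 : ∀ i j, Pi.single i 4 - Pi.single j 4 ∈ Λ

/-- The code of the even vectors. -/
def cd (Λ : AddSubgroup (ι → ℤ)) : Submodule (ZMod 2) (ι → ZMod 2) where
  carrier := {w | ∃ y : ι → ℤ, (2 : ℤ) • y ∈ Λ ∧ ∀ i, (y i : ZMod 2) = w i}
  zero_mem' := ⟨0, by simp, by simp⟩
  add_mem' := by
    rintro a b ⟨y, hy, ey⟩ ⟨z, hz, ez⟩
    exact ⟨y + z, by rw [smul_add]; exact Λ.add_mem hy hz, fun i => by simp [ey, ez]⟩
  smul_mem' := by
    rintro c a ⟨y, hy, ey⟩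
    obtain ⟨k, rfl⟩ := ZMod.intCast_surjective c
    exact ⟨k • y, by rw [smul_comm]; exact Λ.zsmul_mem hy k, fun i => by simp [ey]⟩

omit [Fintype ι] [DecidableEq ι] in
theorem mem_cd {Λ : AddSubgroup (ι → ℤ)} {w : ι → ZMod 2} :
    w ∈ cd Λ ↔ ∃ y : ι → ℤ, (2 : ℤ) • y ∈ Λ ∧ ∀ i, (y i : ZMod 2) = w i := Iff.rfl

theorem cast_eq_iff (a b : ℤ) : (a : ZMod 2) = b ↔ (2 : ℤ) ∣ a - b :=
  (ZMod.intCast_eq_intCast_iff_dvd_sub a b 2).trans (by rw [dvd_sub_comm]; rfl)

theorem cast_eq_zero_iff (a : ℤ) : (a : ZMod 2) = 0 ↔ (2 : ℤ) ∣ a :=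
  ZMod.intCast_zmod_eq_zero_iff_dvd a 2

omit [DecidableEq ι] in
theorem sum_sq_eq {x : ι → ℤ} {a : ℤ} (h : ∀ i, x i = 0 ∨ x i = a ∨ x i = -a) :
    ∑ i, x i ^ 2 = a ^ 2 * (univ.filter fun i => x i ≠ 0).card := by
  rw [card_eq_sum_ones, sum_filter, Nat.cast_sum, mul_sum]
  refine sum_congr rfl fun i _ => ?_
  by_cases e : x i = 0
  · simp [e]
  · rcases h i with f | f | f
    · exact absurd f e
    · rw [if_pos e, f]; simp
    · rw [if_pos e, f]; simp

namespace PreL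

variable {Λ : AddSubgroup (ι → ℤ)}

theorem par (h : PreL Λ) {x : ι → ℤ} (hx : x ∈ Λ) (i j : ι) : (2 : ℤ) ∣ x i - x j := by
  have := h.dot x hx _ (h.e4 i j)
  simp only [Pi.sub_apply, mul_sub, sum_sub_distrib, Pi.single_apply, mul_ite, mul_zero,
    sum_ite_eq', mem_univ, if_true] at this
  omega

theorem mem_of_four (h : PreL Λ) (i₀ : ι) {y : ι → ℤ} (h4 : ∀ i, (4 : ℤ) ∣ y i)
    (h8 : (8 : ℤ) ∣ ∑ i, y i) : y ∈ Λ := by
  choose z hz using h4
  obtain ⟨k, hk⟩ := h8
  have e : y = ∑ i, z i • (Pi.single i 4 - Pi.single i₀ 4 : ι → ℤ) +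
      k • (Pi.single i₀ 8 : ι → ℤ) := by
    funext j
    have e1 : ∑ i, y i = 4 * ∑ i, z i := by rw [mul_sum]; exact sum_congr rfl fun i _ => hz i
    simp only [Pi.add_apply, Finset.sum_apply, Pi.smul_apply, Pi.sub_apply, smul_eq_mul, mul_sub,
      sum_sub_distrib, Pi.single_apply, mul_ite, mul_zero, sum_ite_eq, mem_univ, if_true]
    split_ifs with hj
    · rw [← sum_mul, hz j]; omega
    · simp [hz j, mul_comm]
  rw [e]
  exact Λ.add_mem (Λ.sum_mem fun i _ => Λ.zsmul_mem (h.e4 i i₀) _) (Λ.zsmul_mem (h.e8 i₀) _)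

theorem eight_dvd (h : PreL Λ) (i₀ : ι) {y : ι → ℤ} (hy : y ∈ Λ) (h4 : ∀ i, (4 : ℤ) ∣ y i) :
    (8 : ℤ) ∣ ∑ i, y i := by
  by_contra h8
  have hs : (4 : ℤ) ∣ ∑ i, y i := dvd_sum fun i _ => h4 i
  have h1 : y - Pi.single i₀ 4 ∈ Λ := by
    refine h.mem_of_four i₀ (fun i => ?_) ?_
    · rw [Pi.sub_apply, Pi.single_apply]
      have := h4 i
      split_ifs <;> omega
    · simp only [Pi.sub_apply, sum_sub_distrib, Pi.single_apply, sum_ite_eq', mem_univ, if_true]
      omega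
  have h2 : (Pi.single i₀ 4 : ι → ℤ) ∈ Λ := by simpa using Λ.sub_mem hy h1
  have h3 := h.min _ h2 (fun e => by simpa using congrFun e i₀)
  simp [Pi.single_apply] at h3

theorem reduce (h : PreL Λ) {w : ι → ZMod 2} (hw : w ∈ cd Λ) (h0 : w ≠ 0) :
    ∃ x ∈ Λ, x ≠ 0 ∧ ∑ i, x i ^ 2 = 4 * hammingNorm w := by
  obtain ⟨y, hy, ey⟩ := hw
  obtain ⟨s, hs⟩ : ∃ s, w s ≠ 0 := Function.ne_iff.1 h0
  have key : ∀ u : ι → ℤ, (∀ i, (w i = 0 → u i = 0) ∧ (w i ≠ 0 → u i = 2 ∨ u i = -2)) →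
      (8 : ℤ) ∣ ∑ i, (2 * y i - u i) → ∃ x ∈ Λ, x ≠ 0 ∧ ∑ i, x i ^ 2 = 4 * hammingNorm w := by
    intro u hu h8
    have h1 : (2 : ℤ) • y - u ∈ Λ := by
      refine h.mem_of_four s (fun i => ?_) h8
      show (4 : ℤ) ∣ 2 * y i - u i
      by_cases e : w i = 0
      · have := (cast_eq_zero_iff _).1 ((ey i).trans e)
        rw [(hu i).1 e]; omega
      · have : ¬ (2 : ℤ) ∣ y i := fun f => e ((ey i).symm.trans ((cast_eq_zero_iff _).2 f))
        rcases (hu i).2 e with f | f <;> omega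
    refine ⟨u, by simpa using Λ.sub_mem hy h1, fun e => ?_, ?_⟩
    · have := congrFun e s
      rcases (hu s).2 hs with f | f <;> simp [f] at this
    · rw [sum_sq_eq (a := 2) (fun i => by
        by_cases e : w i = 0
        · exact Or.inl ((hu i).1 e)
        · exact Or.inr ((hu i).2 e)), hammingNorm]
      congr 3
      refine filter_congr fun i _ => ?_
      by_cases e : w i = 0
      · simp [e, (hu i).1 e]
      · rcases (hu i).2 e with f | f <;> simp [e, f]
  let u : ι → ℤ := fun i => if w i = 0 then 0 else 2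
  have h4 : (4 : ℤ) ∣ ∑ i, (2 * y i - u i) := by
    refine dvd_sum fun i _ => ?_
    by_cases e : w i = 0
    · have := (cast_eq_zero_iff _).1 ((ey i).trans e)
      simp only [u, if_pos e]; omega
    · have : ¬ (2 : ℤ) ∣ y i := fun f => e ((ey i).symm.trans ((cast_eq_zero_iff _).2 f))
      simp only [u, if_neg e]; omega
  by_cases h8 : (8 : ℤ) ∣ ∑ i, (2 * y i - u i)
  · exact key u (fun i => ⟨fun e => if_pos e, fun e => Or.inl (if_neg e)⟩) h8
  · refine key (u - Pi.single s 4) (fun i => ⟨fun e => ?_, fun e => ?_⟩) ?_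
    · have : i ≠ s := fun f => hs (f ▸ e)
      simp [u, e, this]
    · by_cases f : i = s
      · right; subst f; simp [u, e]
      · left; simp [u, e, f]
    · have : ∑ i, (2 * y i - (u - Pi.single s 4 : ι → ℤ) i) = ∑ i, (2 * y i - u i) + 4 := by
        simp only [Pi.sub_apply, sum_sub_distrib, Pi.single_apply, sum_ite_eq', mem_univ, if_true]
        ring
      omega

theorem four_dvd (h : PreL Λ) {w : ι → ZMod 2} (hw : w ∈ cd Λ) : 4 ∣ hammingNorm w := by
  by_cases h0 : w = 0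
  · simp [h0]
  · obtain ⟨x, hx, -, e⟩ := h.reduce hw h0
    have := h.sq x hx
    omega

theorem eight_le (h : PreL Λ) {w : ι → ZMod 2} (hw : w ∈ cd Λ) (h0 : w ≠ 0) :
    8 ≤ hammingNorm w := by
  obtain ⟨x, hx, h1, e⟩ := h.reduce hw h0
  have := h.min x hx h1
  omega

theorem orth (h : PreL Λ) {v w : ι → ZMod 2} (hv : v ∈ cd Λ) (hw : w ∈ cd Λ) :
    ∑ i, v i * w i = 0 := by
  obtain ⟨y, hy, ey⟩ := hv
  obtain ⟨z, hz, ez⟩ := hw
  have h1 := h.dot _ hy _ hz
  have e : ∑ i, ((2 : ℤ) • y) i * ((2 : ℤ) • z) i = 4 * ∑ i, y i * z i := by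
    rw [mul_sum]
    exact sum_congr rfl fun i _ => by simp only [Pi.smul_apply, smul_eq_mul]; ring
  have h2 := (cast_eq_zero_iff (∑ i, y i * z i)).2 (by omega)
  simpa [ey, ez] using h2

theorem finrank_le (h : PreL Λ) (hι : Fintype.card ι = 24) :
    Module.finrank (ZMod 2) (cd Λ) ≤ 12 := by
  let B : LinearMap.BilinForm (ZMod 2) (ι → ZMod 2) := Matrix.toBilin' 1
  have hB : ∀ x y, B x y = ∑ i, x i * y i := fun x y => by
    rw [Matrix.toBilin'_apply', Matrix.one_mulVec]; rfl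
  have hn : B.Nondegenerate := by
    rw [LinearMap.BilinForm.nondegenerate_toBilin'_iff_det_ne_zero]
    simp
  have h1 : cd Λ ≤ B.orthogonal (cd Λ) := fun w hw v hv => by
    rw [hB]; exact h.orth hv hw
  have h2 := Submodule.finrank_mono h1
  rw [LinearMap.BilinForm.finrank_orthogonal hn, Module.finrank_fintype_fun_eq_card, hι] at h2
  omega

open Classical in
theorem card_oct (h : PreL Λ) (hι : Fintype.card ι = 24) :
    (univ.filter fun w : ι → ZMod 2 => w ∈ cd Λ ∧ hammingNorm w = 8).card ≤ 759 := by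
  have := card_mul_le_card_mul
    (s := univ.filter fun w : ι → ZMod 2 => w ∈ cd Λ ∧ hammingNorm w = 8)
    (t := powersetCard 5 (univ : Finset ι)) (m := 56) (n := 1)
    (fun w T => T ⊆ univ.filter fun i => w i ≠ 0) (fun w hw => by
      have e : (powersetCard 5 (univ : Finset ι)).bipartiteAbove
          (fun (w : ι → ZMod 2) T => T ⊆ univ.filter fun i => w i ≠ 0) w =
          powersetCard 5 (univ.filter fun i => w i ≠ 0) := by
        ext T
        simp [mem_bipartiteAbove, mem_powersetCard, and_comm]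
      have h8 : (univ.filter fun i => w i ≠ 0).card = 8 := (mem_filter.1 hw).2.2
      rw [e, card_powersetCard, h8]
      decide) (fun T hT => by
      rw [card_le_one]
      intro v hv w hw
      rw [mem_bipartiteBelow, mem_filter] at hv hw
      by_contra hne
      have h1 := h.eight_le ((cd Λ).sub_mem hv.1.2.1 hw.1.2.1) (sub_ne_zero.2 hne)
      have h2 : (univ.filter fun i => (v - w) i ≠ 0) ⊆
          ((univ.filter fun i => v i ≠ 0) \ T) ∪ ((univ.filter fun i => w i ≠ 0) \ T) := by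
        intro i hi
        have hi' : v i - w i ≠ 0 := (mem_filter.1 hi).2
        have hz : ∀ a b : ZMod 2, a - b ≠ 0 → ¬ (a ≠ 0 ∧ b ≠ 0) ∧ (a ≠ 0 ∨ b ≠ 0) := by decide
        have hT' : i ∉ T := fun f =>
          (hz _ _ hi').1 ⟨(mem_filter.1 (hv.2 f)).2, (mem_filter.1 (hw.2 f)).2⟩
        rcases (hz _ _ hi').2 with f | f
        · exact mem_union_left _ (mem_sdiff.2 ⟨mem_filter.2 ⟨mem_univ _, f⟩, hT'⟩)
        · exact mem_union_right _ (mem_sdiff.2 ⟨mem_filter.2 ⟨mem_univ _, f⟩, hT'⟩)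
      have h3 := (card_le_card h2).trans (card_union_le _ _)
      have h4 : (univ.filter fun i => v i ≠ 0).card = 8 := hv.1.2.2
      have h5 : (univ.filter fun i => w i ≠ 0).card = 8 := hw.1.2.2
      rw [card_sdiff_of_subset hv.2, card_sdiff_of_subset hw.2, h4, h5,
        (mem_powersetCard.1 hT).2] at h3
      have h6 : hammingNorm (v - w) = (univ.filter fun i => (v - w) i ≠ 0).card := rfl
      omega)
  rw [card_powersetCard, card_univ, hι, show Nat.choose 24 5 = 42504 by decide] at this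
  omega

theorem cardA (hι : Fintype.card ι = 24) {M : Finset (ι → ℤ)}
    (hM : ∀ x ∈ M, (∀ i, (4 : ℤ) ∣ x i) ∧ ∑ i, x i ^ 2 = 32) : M.card ≤ 1104 := by
  have hv : ∀ x ∈ M, ∀ i, x i = 0 ∨ x i = 4 ∨ x i = -4 := by
    intro x hx i
    have h1 : x i ^ 2 ≤ 32 := (hM x hx).2 ▸ single_le_sum (f := fun i => x i ^ 2)
      (fun i _ => sq_nonneg _) (mem_univ i)
    obtain ⟨k, hk⟩ := (hM x hx).1 i
    have : k ≤ 1 := by nlinarith
    have : -1 ≤ k := by nlinarith
    omega
  have := card_le_card_of_injOn (s := M)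
    (t := (powersetCard 2 (univ : Finset ι)).sigma fun S => S.powerset)
    (fun x => ⟨univ.filter fun i => x i ≠ 0, univ.filter fun i => x i < 0⟩) (fun x hx => by
      have e := sum_sq_eq (hv x hx)
      rw [(hM x hx).2] at e
      simp only [coe_sigma, Set.mem_sigma_iff, mem_coe, mem_powersetCard, mem_powerset]
      refine ⟨⟨subset_univ _, by omega⟩, fun i hi => ?_⟩
      simp only [mem_filter, mem_univ, true_and] at hi ⊢
      omega) (fun x hx y hy e => by
      simp only [Sigma.mk.injEq, heq_eq_eq] at e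
      funext i
      have e1 := Finset.ext_iff.1 e.1 i
      have e2 := Finset.ext_iff.1 e.2 i
      simp only [mem_filter, mem_univ, true_and] at e1 e2
      have := hv x hx i
      have := hv y hy i
      omega)
  rw [card_sigma, sum_congr rfl (g := fun _ => 4) (fun S hS => by
    rw [card_powerset, (mem_powersetCard.1 hS).2]; rfl), sum_const, card_powersetCard, card_univ, hι]
    at this
  exact this

theorem shapeB (h : PreL Λ) {x : ι → ℤ} (hx : x ∈ Λ) (h2 : ∀ i, (2 : ℤ) ∣ x i)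
    (h4 : ¬ ∀ i, (4 : ℤ) ∣ x i) (hn : ∑ i, x i ^ 2 = 32) :
    (fun i => ((x i / 2 : ℤ) : ZMod 2)) ∈ cd Λ ∧ hammingNorm (fun i => ((x i / 2 : ℤ) : ZMod 2)) = 8 ∧
      ∀ i, (((x i / 2 : ℤ) : ZMod 2) = 0 → x i = 0) ∧
        (((x i / 2 : ℤ) : ZMod 2) ≠ 0 → x i = 2 ∨ x i = -2) := by
  have hc : (fun i => ((x i / 2 : ℤ) : ZMod 2)) ∈ cd Λ := by
    refine ⟨fun i => x i / 2, ?_, fun _ => rfl⟩
    convert hx using 1
    funext i
    have := h2 i
    simp only [Pi.smul_apply, smul_eq_mul]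
    omega
  have h0 : (fun i => ((x i / 2 : ℤ) : ZMod 2)) ≠ 0 := by
    intro e
    apply h4
    intro i
    have := (cast_eq_zero_iff _).1 (congrFun e i)
    have := h2 i
    omega
  have h8 := h.eight_le hc h0
  have hle : ∀ i ∈ (univ : Finset ι),
      (if ((x i / 2 : ℤ) : ZMod 2) ≠ 0 then 4 else 0 : ℤ) ≤ x i ^ 2 := by
    intro i _
    split_ifs with e
    · have e1 : ¬ (2 : ℤ) ∣ x i / 2 := fun f => e ((cast_eq_zero_iff _).2 f)
      have := h2 i
      have : x i ≤ -2 ∨ 2 ≤ x i := by omega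
      rcases this with f | f <;> nlinarith
    · exact sq_nonneg _
  have es : ∑ i, (if ((x i / 2 : ℤ) : ZMod 2) ≠ 0 then 4 else 0 : ℤ) =
      4 * hammingNorm (fun i => ((x i / 2 : ℤ) : ZMod 2)) := by
    rw [← sum_filter, sum_const, hammingNorm]
    simp [mul_comm]
  have h9 := sum_le_sum hle
  have h10 := (sum_eq_sum_iff_of_le hle).1 (by omega)
  refine ⟨hc, by omega, fun i => ⟨fun e => ?_, fun e => ?_⟩⟩
  · have := h10 i (mem_univ i)
    rw [if_neg (not_not.2 e)] at this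
    exact pow_eq_zero_iff (two_ne_zero) |>.1 this.symm
  · have := h10 i (mem_univ i)
    rw [if_pos e] at this
    have e1 : (x i - 2) * (x i + 2) = 0 := by ring_nf; omega
    rcases mul_eq_zero.1 e1 with f | f <;> omega

theorem cardB (h : PreL Λ) (hι : Fintype.card ι = 24) {M : Finset (ι → ℤ)}
    (hM : ∀ x ∈ M, x ∈ Λ ∧ (∀ i, (2 : ℤ) ∣ x i) ∧ (¬ ∀ i, (4 : ℤ) ∣ x i) ∧ ∑ i, x i ^ 2 = 32) :
    M.card ≤ 97152 := by
  classical
  have : Nonempty ι := Fintype.card_pos_iff.1 (by omega)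
  let pick : (ι → ZMod 2) → ι := fun w => Classical.epsilon fun i => w i ≠ 0
  have hpick : ∀ w : ι → ZMod 2, hammingNorm w = 8 → w (pick w) ≠ 0 := fun w hw =>
    Classical.epsilon_spec (p := fun i => w i ≠ 0)
      (Function.ne_iff.1 (hammingNorm_ne_zero_iff.1 (by omega)))
  have hs := fun x hx => h.shapeB (hM x hx).1 (hM x hx).2.1 (hM x hx).2.2.1 (hM x hx).2.2.2
  have := card_le_card_of_injOn (s := M)
    (t := (univ.filter fun w : ι → ZMod 2 => w ∈ cd Λ ∧ hammingNorm w = 8).sigma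
      fun w => ((univ.filter fun i => w i ≠ 0).erase (pick w)).powerset)
    (fun x => ⟨fun i => ((x i / 2 : ℤ) : ZMod 2),
      (univ.filter fun i => x i < 0).erase (pick fun i => ((x i / 2 : ℤ) : ZMod 2))⟩)
    (fun x hx => by
      simp only [coe_sigma, Set.mem_sigma_iff, mem_coe, mem_powerset, mem_filter, mem_univ,
        true_and]
      refine ⟨⟨(hs x hx).1, (hs x hx).2.1⟩, erase_subset_erase _ fun i hi => ?_⟩
      simp only [mem_filter, mem_univ, true_and] at hi ⊢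
      intro e
      have := ((hs x hx).2.2 i).1 e
      omega) (fun x hx y hy e => by
      simp only [Sigma.mk.injEq, heq_eq_eq] at e
      obtain ⟨e1, e2⟩ := e
      rw [← e1] at e2
      set s := pick fun i => ((x i / 2 : ℤ) : ZMod 2) with hsdef
      have hxy : ∀ i, i ≠ s → x i = y i := by
        intro i hi
        have e3 := Finset.ext_iff.1 e2 i
        simp only [mem_erase, hi, ne_eq, not_false_eq_true, mem_filter, mem_univ, true_and] at e3
        have e4 : ((x i / 2 : ℤ) : ZMod 2) = ((y i / 2 : ℤ) : ZMod 2) := congrFun e1 i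
        by_cases f : ((x i / 2 : ℤ) : ZMod 2) = 0
        · rw [((hs x hx).2.2 i).1 f, ((hs y hy).2.2 i).1 (e4 ▸ f)]
        · have := ((hs x hx).2.2 i).2 f
          have := ((hs y hy).2.2 i).2 (e4 ▸ f)
          omega
      have f := hpick _ (hs x hx).2.1
      have e4 : ((x s / 2 : ℤ) : ZMod 2) = ((y s / 2 : ℤ) : ZMod 2) := congrFun e1 s
      have f1 := ((hs x hx).2.2 s).2 f
      have f2 := ((hs y hy).2.2 s).2 (e4 ▸ f)
      have h8 := h.eight_dvd s (Λ.sub_mem (hM x hx).1 (hM y hy).1) (fun i => by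
        by_cases g : i = s
        · rw [g, Pi.sub_apply]; omega
        · rw [Pi.sub_apply, hxy i g]; simp)
      rw [sum_eq_single s (fun i _ g => by rw [Pi.sub_apply, hxy i g, sub_self])
        (fun g => absurd (mem_univ s) g), Pi.sub_apply] at h8
      funext i
      by_cases g : i = s
      · rw [g]; omega
      · exact hxy i g)
  rw [card_sigma, sum_congr rfl (g := fun _ => 128) (fun w hw => by
    have h8 : (univ.filter fun i => w i ≠ 0).card = 8 := (mem_filter.1 hw).2.2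
    have hm : pick w ∈ univ.filter fun i => w i ≠ 0 := mem_filter.2 ⟨mem_univ _, hpick w h8⟩
    rw [card_powerset, card_erase_of_mem hm, h8]; rfl),
    sum_const, smul_eq_mul] at this
  have := h.card_oct hι
  omega

omit [DecidableEq ι] in
theorem shapeC (hι : Fintype.card ι = 24) {x : ι → ℤ} (h2 : ∀ i, ¬ (2 : ℤ) ∣ x i)
    (hn : ∑ i, x i ^ 2 = 32) :
    ∃ j, (x j = 3 ∨ x j = -3) ∧ ∀ i, i ≠ j → x i = 1 ∨ x i = -1 := by
  classical
  have h1 : ∀ i, 1 ≤ x i ^ 2 := fun i => by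
    have := h2 i
    have : x i ≤ -1 ∨ 1 ≤ x i := by omega
    rcases this with f | f <;> nlinarith
  obtain ⟨j, hj⟩ : ∃ j, x j ^ 2 ≠ 1 := by
    by_contra hno
    push Not at hno
    simp [hno, hι] at hn
  have h9 : 9 ≤ x j ^ 2 := by
    have := h2 j
    have h3 : x j ≠ 1 := fun f => hj (by rw [f]; rfl)
    have h4 : x j ≠ -1 := fun f => hj (by rw [f]; rfl)
    have : x j ≤ -3 ∨ 3 ≤ x j := by omega
    rcases this with f | f <;> nlinarith
  have hle : ∀ i ∈ (univ : Finset ι), (if i = j then 9 else 1 : ℤ) ≤ x i ^ 2 := by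
    intro i _
    split_ifs with e
    · rw [e]; exact h9
    · exact h1 i
  have es : ∑ i, (if i = j then 9 else 1 : ℤ) = 32 := by
    rw [sum_congr rfl (g := fun i => 1 + if i = j then 8 else 0) (fun i _ => by
      split_ifs <;> rfl), sum_add_distrib]
    simp [hι]
  have h10 := (sum_eq_sum_iff_of_le hle).1 (by omega)
  refine ⟨j, ?_, fun i hi => ?_⟩
  · have := h10 j (mem_univ j)
    rw [if_pos rfl] at this
    have e1 : (x j - 3) * (x j + 3) = 0 := by ring_nf; omega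
    rcases mul_eq_zero.1 e1 with f | f <;> omega
  · have := h10 i (mem_univ i)
    rw [if_neg hi] at this
    have e1 : (x i - 1) * (x i + 1) = 0 := by ring_nf; omega
    rcases mul_eq_zero.1 e1 with f | f <;> omega

theorem cardC (hι : Fintype.card ι = 24) {M : Finset (ι → ℤ)}
    (hM : ∀ x ∈ M, x ∈ Λ ∧ (∀ i, ¬ (2 : ℤ) ∣ x i) ∧ ∑ i, x i ^ 2 = 32) :
    M.card ≤ Nat.card (cd Λ) * 24 := by
  classical
  rcases M.eq_empty_or_nonempty with rfl | ⟨x₀, h₀⟩
  · simp
  have hs := fun x hx => shapeC hι (hM x hx).2.1 (hM x hx).2.2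
  choose J hJ using fun x : M => hs x.1 x.2
  have hc : ∀ x ∈ M, (fun i => (((x i - x₀ i) / 2 : ℤ) : ZMod 2)) ∈ cd Λ := by
    intro x hx
    refine ⟨fun i => (x i - x₀ i) / 2, ?_, fun _ => rfl⟩
    convert Λ.sub_mem (hM x hx).1 (hM x₀ h₀).1 using 1
    funext i
    have := (hM x hx).2.1 i
    have := (hM x₀ h₀).2.1 i
    simp only [Pi.smul_apply, smul_eq_mul, Pi.sub_apply]
    omega
  have := Nat.card_le_card_of_injective (fun x : M => ((⟨_, hc x.1 x.2⟩ : cd Λ), J x))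
    (fun x y e => by
      obtain ⟨e1, e2⟩ := Prod.ext_iff.1 e
      have e2' : J x = J y := e2
      apply Subtype.ext
      funext i
      have e3 := (cast_eq_iff _ _).1 (congrFun (congrArg Subtype.val e1) i)
      have := (hM _ x.2).2.1 i
      have := (hM _ y.2).2.1 i
      have := (hM x₀ h₀).2.1 i
      by_cases g : i = J x
      · have f1 := (hJ x).1
        have f2 := (hJ y).1
        rw [← e2', ← g] at f2
        rw [← g] at f1
        omega
      · have f1 := (hJ x).2 i g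
        have f2 := (hJ y).2 i (e2' ▸ g)
        omega)
  rwa [Nat.card_prod, Nat.card_eq_fintype_card (α := ι), hι, Nat.card_eq_finsetCard] at this

/-- The count of minimal vectors forces the code to have dimension twelve and produces an odd
minimal vector. -/
theorem main (h : PreL Λ) (hι : Fintype.card ι = 24) {M : Finset (ι → ℤ)}
    (hM : ∀ x ∈ M, x ∈ Λ ∧ ∑ i, x i ^ 2 = 32) (hc : M.card = 196560) :
    Module.finrank (ZMod 2) (cd Λ) = 12 ∧
      ∃ x ∈ Λ, ∃ j, (x j = 3 ∨ x j = -3) ∧ ∀ i, i ≠ j → x i = 1 ∨ x i = -1 := by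
  classical
  obtain ⟨i₀⟩ : Nonempty ι := Fintype.card_pos_iff.1 (by omega)
  have e1 := card_filter_add_card_filter_not (s := M) (fun x => ∀ i, (2 : ℤ) ∣ x i)
  have e2 := card_filter_add_card_filter_not (s := M.filter fun x => ∀ i, (2 : ℤ) ∣ x i)
    (fun x => ∀ i, (4 : ℤ) ∣ x i)
  have hA := cardA hι (M := (M.filter fun x => ∀ i, (2 : ℤ) ∣ x i).filter
    fun x => ∀ i, (4 : ℤ) ∣ x i) (fun x hx =>
      ⟨(mem_filter.1 hx).2, (hM x (mem_filter.1 (mem_filter.1 hx).1).1).2⟩)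
  have hB := h.cardB hι (M := (M.filter fun x => ∀ i, (2 : ℤ) ∣ x i).filter
    fun x => ¬ ∀ i, (4 : ℤ) ∣ x i) (fun x hx =>
      ⟨(hM x (mem_filter.1 (mem_filter.1 hx).1).1).1, (mem_filter.1 (mem_filter.1 hx).1).2,
        (mem_filter.1 hx).2, (hM x (mem_filter.1 (mem_filter.1 hx).1).1).2⟩)
  have hodd : ∀ x ∈ M.filter fun x => ¬ ∀ i, (2 : ℤ) ∣ x i,
      x ∈ Λ ∧ (∀ i, ¬ (2 : ℤ) ∣ x i) ∧ ∑ i, x i ^ 2 = 32 := by
    intro x hx
    obtain ⟨h1, h2⟩ := mem_filter.1 hx
    refine ⟨(hM x h1).1, fun i hi => h2 fun j => ?_, (hM x h1).2⟩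
    have := h.par (hM x h1).1 i j
    omega
  have hC := cardC hι hodd
  have hr := h.finrank_le hι
  have hcard := Module.natCard_eq_pow_finrank (K := ZMod 2) (V := cd Λ)
  rw [Nat.card_zmod] at hcard
  constructor
  · refine le_antisymm hr ?_
    by_contra hlt
    have : 2 ^ Module.finrank (ZMod 2) (cd Λ) ≤ 2 ^ 11 :=
      Nat.pow_le_pow_right (by norm_num) (by omega)
    omega
  · obtain ⟨x, hx⟩ : (M.filter fun x => ¬ ∀ i, (2 : ℤ) ∣ x i).Nonempty :=
      card_pos.1 (by omega)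
    exact ⟨x, (hodd x hx).1, shapeC hι (hodd x hx).2.1 (hodd x hx).2.2⟩

end PreL

theorem auto_lemmas_leechA : True := by
  have := @cd.eq_1.{0}
  trivial

end H73.Lch
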