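import Cfsg.Agent.S5426
import Cfsg.Agent.S5433

/-!
A simplicity criterion for groups with a large extraspecial `2`-subgroup.
-/

set_option autoImplicit false

namespace H73.LX

open Cfsg Subgroup H95

variable {G : Type*} [Group G]

theorem simple_of_cent_le [Finite G] {Q : Subgroup G} {z : G} (h : L3 Q z)
    (hQ : IsLargeExtraspecial Q)
    (hF : (generalizedFittingSubgroup (centralizer ({z} : Set G))).map
      (centralizer ({z} : Set G)).subtype = Q)
    (hC : centralizer ({z} : Set G) ≤ normalClosure ({z} : Set G)) : IsSimpleGroup G := by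
  have hQM : Q ≤ normalClosure ({z} : Set G) := h.le_centralizer.trans hC
  have hna : ¬ IsMulCommutative (normalClosure ({z} : Set G)) := by
    intro hc
    obtain ⟨x, hx, y, hy, hne⟩ := h.nonab
    exact hne (congrArg Subtype.val
      (hc.is_comm.comm (⟨x, hQM hx⟩ : normalClosure ({z} : Set G)) ⟨y, hQM hy⟩))
  rcases Cfsg.Agent.S5426.result Q hQ z h.center_eq _ rfl with h1 | h1 | h1 | h1
  · exfalso
    have hc : ∀ g : G, g * z = z * g := by
      intro g
      have : g ∈ normalizer (Q : Set G) := by rw [normalizer_eq_top]; trivial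
      rw [h.normalizer_eq] at this
      exact mem_cent_iff.1 this
    have hn : (zpowers z).Normal := by
      constructor
      intro n hn g
      rcases h.mem_zpowers.1 hn with e | e
      · rw [e]; simp
      · rw [e, hc g]; simp
    have hle : normalClosure ({z} : Set G) ≤ zpowers z :=
      normalClosure_le_normal (by simp)
    obtain ⟨x, hx, y, hy, hne⟩ := h.nonab
    rcases h.mem_zpowers.1 (hle (hQM hx)) with e | e
    · exact hne (by rw [e]; simp)
    · exact hne (by rw [e, hc y])
  · exact absurd h1.1 hna
  · have ht := Cfsg.Agent.S5433.result Q hQ _ hQM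
    rw [h.normalizer_eq, sup_eq_left.2 hC] at ht
    have := h1.2.1
    rw [ht] at this
    exact (topEquiv (G := G)).symm.isSimpleGroup
  · exfalso
    obtain ⟨-, L, u, -, -, -, -, -, -, z₁, -, -, -, hne⟩ := h1
    apply hne
    have hp : IsPGroup 2 (generalizedFittingSubgroup (centralizer ({z} : Set G))) := by
      have := h.isPGroup
      rw [← hF] at this
      exact this.of_equiv (equivMapOfInjective _ _ (subtype_injective _)).symm
    rw [← H23.fStar_eq_pCore_iff_isPGroup.2 hp, hF]

theorem eight_lt {w n : ℕ} (hw : 2 ≤ w) (h : n = 2 ^ (2 * w + 1)) : 8 < n := by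
  rw [h]
  calc 8 < 2 ^ 5 := by norm_num
    _ ≤ 2 ^ (2 * w + 1) := Nat.pow_le_pow_right (by norm_num) (by omega)

end H73.LX
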