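import Cfsg.Agent.Lib.LargeExtra.Large
import Cfsg.Agent.Lib.Inv73.ZStar
import Cfsg.Agent.Lib.Inv73.D8
import Cfsg.Agent.Lib.PGroup.Frattini

/-!
An involution whose centraliser is a Sylow `2`-subgroup with Frattini subgroup of order two.
-/

set_option autoImplicit false

namespace H73.LX

open Cfsg Subgroup H95

variable {L : Type*} [Group L]

/-- `C(z)` is a Sylow `2`-subgroup, all of its squares lie in `⟨z⟩` and `z` is one of them. -/
structure SF (z : L) : Prop where
  ne : z ≠ 1
  zz : z * z = 1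
  syl : ∃ R : Sylow 2 L, (R : Subgroup L) = centralizer ({z} : Set L)
  sq : ∀ x, x * z = z * x → x * x = 1 ∨ x * x = z
  ex : ∃ q, q * z = z * q ∧ q * q = z

theorem cm_mul {a b z : L} (ha : a * z = z * a) (hb : b * z = z * b) : a * b * z = z * (a * b) := by
  rw [mul_assoc, hb, ← mul_assoc, ha, mul_assoc]

theorem cm_inv {a z : L} (ha : a * z = z * a) : a⁻¹ * z = z * a⁻¹ :=
  (show Commute a z from ha).inv_left

theorem cm_conj {a z : L} (g : L) : g * a * g⁻¹ * (g * z * g⁻¹) = g * z * g⁻¹ * (g * a * g⁻¹) ↔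
    a * z = z * a := by
  constructor
  · intro h
    calc a * z = g⁻¹ * (g * a * g⁻¹ * (g * z * g⁻¹)) * g := by group
      _ = z * a := by rw [h]; group
  · intro h
    calc g * a * g⁻¹ * (g * z * g⁻¹) = g * (a * z) * g⁻¹ := by group
      _ = _ := by rw [h]; group

namespace SF

variable {z : L}

theorem conj (h : SF z) (g : L) : SF (g * z * g⁻¹) := by
  refine ⟨fun e => h.ne ?_, H73.conj_mul_self h.zz g, ?_, fun x hx => ?_, ?_⟩
  · calc z = g⁻¹ * (g * z * g⁻¹) * g := by group
      _ = 1 := by rw [e]; group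
  · obtain ⟨R, hR⟩ := h.syl
    refine ⟨g • R, ?_⟩
    rw [H73.centralizer_conj, ← hR]
    rfl
  · have e : x = g * (g⁻¹ * x * g) * g⁻¹ := by group
    rw [e, cm_conj] at hx
    rcases h.sq _ hx with f | f
    · left
      calc x * x = g * (g⁻¹ * x * g * (g⁻¹ * x * g)) * g⁻¹ := by group
        _ = 1 := by rw [f]; group
    · right
      calc x * x = g * (g⁻¹ * x * g * (g⁻¹ * x * g)) * g⁻¹ := by group
        _ = _ := by rw [f]
  · obtain ⟨q, h1, h2⟩ := h.ex
    exact ⟨g * q * g⁻¹, (cm_conj g).2 h1, by rw [← h2]; group⟩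

theorem of_isConj (h : SF z) {s : L} (hs : IsConj z s) : SF s := by
  obtain ⟨g, rfl⟩ := isConj_iff.1 hs
  exact h.conj g

theorem comm (h : SF z) {x y : L} (hx : x * z = z * x) (hy : y * z = z * y) :
    x * y = y * x ∨ x * y = y * x * z := by
  have e : x * y = (x * x) * (x⁻¹ * y * (x⁻¹ * y)) * (y⁻¹ * y⁻¹) * (y * x) := by group
  have hc := cm_mul hy hx
  rcases h.sq x hx with h1 | h1 <;> rcases h.sq _ (cm_mul (cm_inv hx) hy) with h2 | h2 <;>
    rcases h.sq _ (cm_inv hy) with h3 | h3 <;> rw [h1, h2, h3] at e <;>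
    simp only [one_mul, mul_one, h.zz] at e <;> first | exact Or.inl e | exact Or.inr (e.trans hc.symm)

theorem conj_eq (h : SF z) {x y : L} (hx : x * z = z * x) (hy : y * z = z * y)
    (hne : x * y ≠ y * x) : x * y * x⁻¹ = y * z := by
  rcases h.comm hx hy with e | e
  · exact absurd e hne
  · rw [e, mul_assoc y, hx]; group

theorem mul_comm_of_ne (h : SF z) {a b y : L} (ha : a * z = z * a) (hb : b * z = z * b)
    (hy : y * z = z * y) (h1 : a * y ≠ y * a) (h2 : b * y ≠ y * b) : a * b * y = y * (a * b) := by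
  have e1 := h.conj_eq ha hy h1
  have e2 := h.conj_eq hb hy h2
  calc a * b * y = a * (b * y * b⁻¹) * b := by group
    _ = a * y * a⁻¹ * (a * z) * b := by rw [e2]; group
    _ = y * (z * z) * (a * b) := by rw [e1, ha]; group
    _ = _ := by rw [h.zz, mul_one]

theorem isPGroup (h : SF z) : IsPGroup 2 (centralizer ({z} : Set L)) := by
  obtain ⟨R, hR⟩ := h.syl
  rw [← hR]
  exact R.isPGroup'

/-- Sylow's theorem in the centraliser of a conjugate of a central element. -/
theorem move [Finite L] (h : SF z) {e a : L} (he : ∀ y, y * z = z * y → y * e = e * y)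
    (ha : IsConj e a) {P : Subgroup L} (hP : IsPGroup 2 P) (hPa : ∀ y ∈ P, y * a = a * y) :
    ∃ n, n * e * n⁻¹ = a ∧ ∀ y ∈ P, y * (n * z * n⁻¹) = n * z * n⁻¹ * y := by
  obtain ⟨g, rfl⟩ := isConj_iff.1 ha
  obtain ⟨R, hR⟩ := h.syl
  have hle : (R : Subgroup L) ≤ centralizer ({e} : Set L) := by
    rw [hR]
    exact fun y hy => mem_cent_iff.2 (he y (mem_cent_iff.1 hy))
  have hp : IsPGroup 2 ((P.map (MulAut.conj g⁻¹).toMonoidHom).subgroupOf
      (centralizer ({e} : Set L))) := (hP.map _).comap_subtype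
  obtain ⟨c, hc⟩ := H9.exists_conj_mem_sylow (R.subtype hle) hp
  have hce : (c : L) * e = e * c := mem_cent_iff.1 c.2
  refine ⟨g * (c : L)⁻¹, ?_, fun y hy => ?_⟩
  · calc g * (c : L)⁻¹ * e * (g * (c : L)⁻¹)⁻¹ = g * ((c : L)⁻¹ * (e * c)) * g⁻¹ := by group
      _ = _ := by rw [← hce]; group
  · have hy' : g⁻¹ * y * g ∈ centralizer ({e} : Set L) := by
      rw [mem_cent_iff, ← cm_conj g]
      simpa [mul_assoc] using hPa y hy
    have := hc ⟨_, hy'⟩ ⟨y, hy, by simp⟩
    have h2 : (c : L) * (g⁻¹ * y * g) * (c : L)⁻¹ ∈ (R : Subgroup L) := this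
    rw [hR, mem_cent_iff, ← cm_conj (g * (c : L)⁻¹)] at h2
    simpa [mul_assoc] using h2

/-- Central elements of `C(z)` are not fused. -/
theorem eq_of_central [Finite L] (h : SF z) {e a : L} (he : ∀ y, y * z = z * y → y * e = e * y)
    (ha : ∀ y, y * z = z * y → y * a = a * y) (hc : IsConj e a) : a = e := by
  obtain ⟨n, h1, h2⟩ := h.move he hc h.isPGroup (fun y hy => ha y (mem_cent_iff.1 hy))
  obtain ⟨q, hq, hqq⟩ := h.ex
  have e1 : z = n * z * n⁻¹ := by
    rcases (h.conj n).sq q (h2 q (mem_cent_iff.2 hq)) with f | f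
    · exact absurd (hqq.symm.trans f) h.ne
    · exact hqq.symm.trans f
  have e2 : n * z = z * n := by
    calc n * z = n * z * n⁻¹ * n := by group
      _ = z * n := by rw [← e1]
  rw [← h1, he n e2, mul_inv_cancel_right]

theorem sq_one (h : SF z) {t : L} (ht : SF t) (hne : t ≠ z) {y : L} (h1 : y * z = z * y)
    (h2 : y * t = t * y) : y * y = 1 := by
  rcases h.sq y h1 with e | e
  · exact e
  · rcases ht.sq y h2 with f | f
    · exact f
    · exact absurd (f.symm.trans e) hne

theorem ab (h : SF z) {t : L} (ht : SF t) (hne : t ≠ z) {x y : L} (hx : x * z = z * x)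
    (hx' : x * t = t * x) (hy : y * z = z * y) (hy' : y * t = t * y) : x * y = y * x := by
  rcases h.comm hx hy with e | e
  · exact e
  · rcases ht.comm hx' hy' with f | f
    · exact f
    · exact absurd (mul_left_cancel (f.symm.trans e)) hne

theorem exists_ne [Finite L] (h : SF z) {t : L} (ht : IsConj z t) (hne : t ≠ z) :
    ∃ r, r * z = z * r ∧ r * t ≠ t * r := by
  by_contra hno
  push Not at hno
  exact hne (h.eq_of_central (fun _ hy => hy) hno ht)

/-- Three commuting conjugates of `z` multiply to one. -/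
theorem three [Finite L] (h : SF z) {t u : L} (ht : IsConj z t) (hu : IsConj z u) (h1 : t ≠ z)
    (h2 : u ≠ z) (h3 : t ≠ u) (c1 : t * z = z * t) (c2 : u * z = z * u) (c3 : t * u = u * t) :
    u = t * z := by
  have hu' := h.of_isConj hu
  have ht' := h.of_isConj ht
  obtain ⟨r, hr, hrt⟩ := h.exists_ne ht h1
  have hw : IsConj u (t * z) := hu.symm.trans (ht.trans (isConj_iff.2 ⟨r, h.conj_eq hr c1 hrt⟩))
  refine (hu'.eq_of_central (fun _ hy => hy) (fun y hy => ?_) hw).symm
  by_cases e1 : y * t = t * y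
  · have e2 : y * z = z * y := hu'.ab ht' h3 hy e1 c2.symm c1.symm
    exact (cm_mul e1.symm e2.symm).symm
  · by_cases e2 : y * z = z * y
    · exact absurd (hu'.ab h h2.symm hy e2 c3 c1) e1
    · exact (hu'.mul_comm_of_ne c3 c2.symm hy (fun f => e1 f.symm) (fun f => e2 f.symm)).symm

theorem exists_za [Finite L] (h : SF z) {e a : L} (he : ∀ y, y * z = z * y → y * e = e * y)
    (hc : IsConj e a) (ha : a * z = z * a) (hn : ∃ r, r * z = z * r ∧ r * a ≠ a * r) :
    ∃ s, IsConj z s ∧ s ≠ z ∧ s * z = z * s ∧ (∀ y, y * s = s * y → y * a = a * y) ∧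
      ∀ y, y * z = z * y → y * a = a * y → y * s = s * y := by
  obtain ⟨n, h1, h2⟩ := h.move he hc
    (P := centralizer ({z} : Set L) ⊓ centralizer ({a} : Set L)) h.isPGroup.to_inf_left
    (fun y hy => mem_cent_iff.1 hy.2)
  have h3 : ∀ y, y * (n * z * n⁻¹) = n * z * n⁻¹ * y → y * a = a * y := by
    intro y hy
    have e1 : y = n * (n⁻¹ * y * n) * n⁻¹ := by group
    rw [e1, cm_conj] at hy
    rw [e1, ← h1, cm_conj]
    exact he _ hy
  refine ⟨n * z * n⁻¹, isConj_iff.2 ⟨n, rfl⟩, fun f => ?_,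
    (h2 z ⟨mem_cent_iff.2 rfl, mem_cent_iff.2 ha.symm⟩).symm, h3,
    fun y hy hy' => h2 y ⟨mem_cent_iff.2 hy, mem_cent_iff.2 hy'⟩⟩
  obtain ⟨r, hr, hra⟩ := hn
  exact hra (h3 r (by rw [f]; exact hr))

/-- Commuting non-central conjugates of a central element. -/
theorem two [Finite L] (h : SF z) {e a b : L} (he : ∀ y, y * z = z * y → y * e = e * y)
    (hca : IsConj e a) (hcb : IsConj e b) (ha : a * z = z * a) (hb : b * z = z * b)
    (hna : ∃ r, r * z = z * r ∧ r * a ≠ a * r) (hnb : ∃ r, r * z = z * r ∧ r * b ≠ b * r)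
    (hab : a * b = b * a) : b = a ∨ b = a * z := by
  obtain ⟨s, s1, s2, s3, s4, s5⟩ := h.exists_za he hca ha hna
  obtain ⟨t, t1, t2, t3, t4, t5⟩ := h.exists_za he hcb hb hnb
  have hs := h.of_isConj s1
  have ht := h.of_isConj t1
  have hbs : b * s = s * b := s5 b hb hab.symm
  have hst : s * t = t * s := t5 s s3 hbs.symm
  by_cases e1 : s = t
  · left
    subst e1
    exact hs.eq_of_central s4 t4 (hca.symm.trans hcb)
  · right
    have e2 := h.three s1 t1 s2 t2 e1 s3 t3 hst
    obtain ⟨r, hr, hrs⟩ := h.exists_ne s1 s2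
    have hra : r * a ≠ a * r := fun f => hrs (s5 r hr f)
    have e3 := h.conj_eq hr s3 hrs
    have e4 := h.conj_eq hr ha hra
    refine ht.eq_of_central (e := a * z) (fun y hy => ?_) t4
      ((isConj_iff.2 ⟨r, e4⟩).symm.trans (hca.symm.trans hcb))
    have e5 : y = r * (r⁻¹ * y * r) * r⁻¹ := by group
    rw [e2, ← e3, e5, cm_conj] at hy
    rw [← e4, e5, cm_conj]
    exact s4 _ hy

theorem sq_mul (h : SF z) {u v : L} (hu : u * z = z * u) (hv : v * z = z * v) (uu : u * u = 1)
    (vv : v * v = 1) (hne : u * v ≠ v * u) : (u * v) * (u * v) = z := by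
  have e := h.conj_eq hu hv hne
  calc u * v * (u * v) = (u * v * u⁻¹) * (u * u) * v := by group
    _ = v * (z * v) := by rw [e, uu]; group
    _ = z := by rw [← hv, ← mul_assoc, vv, one_mul]

theorem dih [Finite L] (h : SF z) {u v : L} (hu : u * z = z * u) (hv : v * z = z * v)
    (uu : u * u = 1) (vv : v * v = 1) (hne : u * v ≠ v * u) :
    DihData (closure ({u, v} : Set L)) 4 (u * v) u := by
  have e := h.sq_mul hu hv uu vv hne
  refine ⟨?_, uu, H9.left_inverts uu vv, ?_, H9.mem_closure_pair_iff uu vv⟩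
  · apply orderOf_eq_prime_pow (p := 2) (n := 1)
    · rw [pow_one, pow_two, e]; exact h.ne
    · rw [show 2 ^ (1 + 1) = 2 * 2 by norm_num, pow_mul, pow_two (u * v), e, pow_two, h.zz]
  · rintro ⟨k, hk⟩
    apply hne
    have hc : Commute (u * v) u := by
      have := (Commute.refl (u * v)).zpow_right k
      rwa [show (u * v) ^ k = u from hk] at this
    exact (mul_left_cancel (a := u) (by rw [← mul_assoc]; exact hc.eq)).symm

theorem no_index_two [Finite L] [IsSimpleGroup L] (hL : ¬ IsMulCommutative L) (N : Subgroup L)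
    (hN : N.Normal) : N.index ≠ 2 := by
  intro h2
  rcases hN.eq_bot_or_eq_top with rfl | rfl
  · rw [index_bot] at h2
    have : IsCyclic L := isCyclic_of_prime_card (p := 2) h2
    exact hL inferInstance
  · simp at h2

theorem exists_pair [Finite L] [IsSimpleGroup L] (hL : ¬ IsMulCommutative L) (h : SF z) :
    ∃ t x, IsConj z t ∧ t ≠ z ∧ t * z = z * t ∧ x * z = z * x ∧ x * x = 1 ∧ x * t ≠ t * x := by
  obtain ⟨t, h1, h2, h3⟩ : ∃ t, IsConj z t ∧ t ≠ z ∧ t * z = z * t := by
    by_contra hno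
    push Not at hno
    obtain ⟨R, hR⟩ := h.syl
    have ht := zpowers_eq_top_of_isolated R (orderOf_eq_two_of h.zz h.ne)
      (show z ∈ (R : Subgroup L) by rw [hR]; exact mem_cent_iff.2 rfl) (fun g hg => by
        by_contra hne
        have hg' : g * z * g⁻¹ ∈ (R : Subgroup L) := hg
        rw [hR] at hg'
        exact hno _ (isConj_iff.2 ⟨g, rfl⟩) hne (mem_cent_iff.1 hg'))
    have : IsCyclic L := isCyclic_iff_exists_zpowers_eq_top.2 ⟨z, ht⟩
    exact hL inferInstance
  obtain ⟨r, hr, hrt⟩ := h.exists_ne h1 h2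
  have tt := (h.of_isConj h1).zz
  rcases h.sq r hr with e | e
  · exact ⟨t, r, h1, h2, h3, hr, e, hrt⟩
  · refine ⟨t, r * t, h1, h2, h3, cm_mul hr h3, ?_, fun f => hrt ?_⟩
    · have e1 := h.conj_eq h3 hr (fun f => hrt f.symm)
      calc r * t * (r * t) = r * (t * r * t⁻¹) * (t * t) := by group
        _ = (r * r) * z := by rw [e1, tt]; group
        _ = 1 := by rw [e, h.zz]
    · rw [← mul_assoc] at f
      exact mul_right_cancel f

/-- The main theorem: `C(z)` is dihedral of order eight. -/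
theorem main [Finite L] [IsSimpleGroup L] (hL : ¬ IsMulCommutative L) (h : SF z) :
    Nonempty (centralizer ({z} : Set L) ≃* DihedralGroup 4) := by
  obtain ⟨t, x, hzt, htz, tz, xz, xx, hxt⟩ := h.exists_pair hL
  have ht := h.of_isConj hzt
  have tt := ht.zz
  have htx : t * x ≠ x * t := fun f => hxt f.symm
  have hcen : ∀ c, c * z = z * c → c * t = t * c → c * x = x * c →
      ∀ y, y * z = z * y → y * c = c * y := by
    intro c c1 c2 c3 y hy
    by_cases e : y * t = t * y
    · exact h.ab ht htz hy e c1 c2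
    · have e1 := h.ab ht htz (cm_mul hy xz) (h.mul_comm_of_ne hy xz tz e hxt) c1 c2
      rw [mul_assoc, ← c3, ← mul_assoc, ← mul_assoc] at e1
      exact mul_right_cancel e1
  have hZ : ∀ e, e * z = z * e → e * t = t * e → e * x = x * e → e = 1 ∨ e = z := by
    intro e e1 e2 e3
    by_contra hno
    push Not at hno
    have he := hcen e e1 e2 e3
    have ee : e * e = 1 := h.sq_one ht htz e1 e2
    obtain ⟨a, a1, aa, a2, a3, a4⟩ : ∃ a, a * z = z * a ∧ a * a = 1 ∧ a * t = t * a ∧
        a * x ≠ x * a ∧ ∀ c, IsConj e c → c * z = z * c → c * t = t * c → c * x ≠ x * c →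
          c = a ∨ c = a * z := by
      by_cases hex : ∃ c, IsConj e c ∧ c * z = z * c ∧ c * t = t * c ∧ c * x ≠ x * c
      · obtain ⟨a, a0, a1, a2, a3⟩ := hex
        exact ⟨a, a1, h.sq_one ht htz a1 a2, a2, a3, fun c c0 c1 c2 c3 =>
          h.two he a0 c0 a1 c1 ⟨x, xz, fun f => a3 f.symm⟩ ⟨x, xz, fun f => c3 f.symm⟩
            (h.ab ht htz a1 a2 c1 c2)⟩
      · exact ⟨t, tz, tt, rfl, htx, fun c c0 c1 c2 c3 => absurd ⟨c, c0, c1, c2, c3⟩ hex⟩
    have hsqc : ∀ c, IsConj e c → c * c = 1 := by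
      intro c hc
      obtain ⟨g, rfl⟩ := isConj_iff.1 hc
      exact H73.conj_mul_self ee g
    obtain ⟨b, b1, bb, b2, b3, b4⟩ : ∃ b, b * z = z * b ∧ b * b = 1 ∧ b * x = x * b ∧
        b * t ≠ t * b ∧ ∀ c, IsConj e c → c * z = z * c → c * x = x * c → c * t ≠ t * c →
          c = b ∨ c = b * z := by
      by_cases hex : ∃ c, IsConj e c ∧ c * z = z * c ∧ c * x = x * c ∧ c * t ≠ t * c
      · obtain ⟨b, b0, b1, b2, b3⟩ := hex
        refine ⟨b, b1, hsqc b b0, b2, b3, fun c c0 c1 c2 c3 =>
          h.two he b0 c0 b1 c1 ⟨t, tz, fun f => b3 f.symm⟩ ⟨t, tz, fun f => c3 f.symm⟩ ?_⟩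
        have e4 := hcen (b * x) (cm_mul b1 xz) (h.mul_comm_of_ne b1 xz tz b3 hxt)
          (cm_mul b2 rfl) c c1
        rw [mul_assoc b, ← c2, ← mul_assoc, ← mul_assoc] at e4
        exact (mul_right_cancel e4).symm
      · exact ⟨x, xz, xx, rfl, hxt, fun c c0 c1 c2 c3 => absurd ⟨c, c0, c1, c2, c3⟩ hex⟩
    have hab : a * b ≠ b * a := by
      intro f
      have e4 := hcen (a * t) (cm_mul a1 tz) (cm_mul a2 rfl)
        (h.mul_comm_of_ne a1 tz xz a3 htx) b b1
      rw [← mul_assoc, ← f, mul_assoc, mul_assoc] at e4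
      exact b3 (mul_left_cancel e4)
    have hsq : ∀ y, y * z = z * y → y * y = 1 → e * y * (e * y) = 1 := by
      intro y h1 h2
      calc e * y * (e * y) = e * (y * e) * y := by group
        _ = (e * e) * (y * y) := by rw [he y h1]; group
        _ = 1 := by rw [ee, h2, one_mul]
    have huv : e * a * (e * b) ≠ e * b * (e * a) := by
      intro f
      apply hab
      rw [mul_assoc, mul_assoc, ← mul_assoc a, ← mul_assoc b, he a a1, he b b1, mul_assoc,
        mul_assoc] at f
      exact mul_left_cancel (mul_left_cancel f)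
    have hD := h.dih (cm_mul e1 a1) (cm_mul e1 b1) (hsq a a1 aa) (hsq b b1 bb) huv
    have hzz := h.sq_mul (cm_mul e1 a1) (cm_mul e1 b1) (hsq a a1 aa) (hsq b b1 bb) huv
    set N := closure ({e * a, e * b} : Set L) with hN
    have huN : e * a ∈ N := Subgroup.subset_closure (by simp)
    have hvN : e * b ∈ N := Subgroup.subset_closure (by simp)
    have hzN : z ∈ N := hzz ▸ mul_mem (mul_mem huN hvN) (mul_mem huN hvN)
    have heN : e ∉ N := by
      intro hm
      have h1 := hD.mem_zpowers_of_commute (by norm_num) hm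
        (he _ (cm_mul (cm_mul e1 a1) (cm_mul e1 b1))).symm
      have h2 := H9.eq_pow_half_of_mem_zpowers (orderOf_eq_two_of ee hno.1) h1
      have h3 := H9.eq_pow_half_of_mem_zpowers (orderOf_eq_two_of h.zz h.ne)
        (hzz ▸ mul_mem (mem_zpowers _) (mem_zpowers _))
      exact hno.2 (h2.2.trans h3.2.symm)
    obtain ⟨R, hR⟩ := h.syl
    have hm : ∀ y : L, y ∈ (R : Subgroup L) ↔ y * z = z * y := fun y => by rw [hR, mem_cent_iff]
    obtain ⟨M, hM1, hM2, hM3⟩ := H5.exists_index_eq_not_mem (p := 2)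
      (N := N.subgroupOf (R : Subgroup L)) (g := ⟨e, (hm e).2 e1⟩) (by
        rw [commutator_def, commutator_le]
        intro p _ q _
        show (p : L) * q * (p : L)⁻¹ * (q : L)⁻¹ ∈ N
        rcases h.comm ((hm p).1 p.2) ((hm q).1 q.2) with f | f
        · rw [f]; simp
        · rw [f, ← cm_mul ((hm q).1 q.2) ((hm p).1 p.2) |>.symm]
          simpa [mul_assoc] using hzN) (by
        intro p
        show (p : L) ^ 2 ∈ N
        rw [pow_two]
        rcases h.sq p ((hm p).1 p.2) with f | f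
        · rw [f]; exact one_mem _
        · rw [f]; exact hzN) heN
    obtain ⟨g, hg⟩ := exists_conj_mem_of_no_index_two (no_index_two hL) R
      (M.map (R : Subgroup L).subtype) (by
        have e4 : (M.map (R : Subgroup L).subtype).subgroupOf (R : Subgroup L) = M :=
          comap_map_eq_self_of_injective (R : Subgroup L).subtype_injective M
        rw [relIndex, e4, hM2]) e
      (orderOf_eq_two_of ee hno.1)
    obtain ⟨c, hcM, hc⟩ := hg
    have c0 : IsConj e (c : L) := isConj_iff.2 ⟨g, hc.symm⟩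
    have c1 := (hm c).1 c.2
    have hfin : e * c ∈ N → False := by
      intro f
      apply hM3
      have f1 : (⟨e, (hm e).2 e1⟩ * c : (R : Subgroup L)) ∈ M := hM1 f
      simpa using mul_mem f1 (inv_mem hcM)
    by_cases c2 : (c : L) * t = t * c <;> by_cases c3 : (c : L) * x = x * c
    · apply hfin
      rw [h.eq_of_central he (hcen c c1 c2 c3) c0, ee]
      exact one_mem _
    · apply hfin
      rcases a4 c c0 c1 c2 c3 with f | f
      · rw [f]; exact huN
      · rw [f, ← mul_assoc]; exact mul_mem huN hzN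
    · apply hfin
      rcases b4 c c0 c1 c3 c2 with f | f
      · rw [f]; exact hvN
      · rw [f, ← mul_assoc]; exact mul_mem hvN hzN
    · have cc := hsqc c c0
      have e4 : c * x * t * t = t * (c * x * t) := cm_mul (h.mul_comm_of_ne c1 xz tz c2 hxt) rfl
      have e5 : c * x * t * x = x * (c * x * t) := by
        refine h.mul_comm_of_ne (cm_mul c1 xz) tz xz (fun f => c3 ?_) htx
        rw [← mul_assoc] at f
        exact mul_right_cancel f
      have e6 := h.sq_one ht htz (cm_mul (cm_mul c1 xz) tz) e4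
      have e7 := hcen _ (cm_mul (cm_mul c1 xz) tz) e4 e5 c c1
      have e8 := h.sq_mul xz tz xx tt hxt
      apply h.ne
      calc z = ((c : L) * c)⁻¹ * (c * (c * x * t)) * (c : L)⁻¹ * (c * x * t) := by
            rw [← e8]; group
        _ = ((c : L) * c)⁻¹ * (c * x * t * (c * x * t)) := by rw [e7]; group
        _ = 1 := by rw [cc, e6]; group
  have hD := h.dih tz xz tt xx htx
  have hzz := h.sq_mul tz xz tt xx htx
  have htN : t ∈ closure ({t, x} : Set L) := Subgroup.subset_closure (by simp)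
  have hxN : x ∈ closure ({t, x} : Set L) := Subgroup.subset_closure (by simp)
  have hzN : z ∈ closure ({t, x} : Set L) := hzz ▸ mul_mem (mul_mem htN hxN) (mul_mem htN hxN)
  have h1 : ∀ y, y * z = z * y → y * t = t * y → y * x = x * y → y ∈ closure ({t, x} : Set L) := by
    intro y y1 y2 y3
    rcases hZ y y1 y2 y3 with f | f
    · rw [f]; exact one_mem _
    · rw [f]; exact hzN
  have h2 : ∀ y, y * z = z * y → y * t = t * y → y ∈ closure ({t, x} : Set L) := by
    intro y y1 y2
    by_cases y3 : y * x = x * y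
    · exact h1 y y1 y2 y3
    · have := h1 (y * t) (cm_mul y1 tz) (cm_mul y2 rfl) (h.mul_comm_of_ne y1 tz xz y3 htx)
      simpa using mul_mem this (inv_mem htN)
  have e : centralizer ({z} : Set L) = closure {t, x} := by
    refine le_antisymm (fun y hy => ?_) ?_
    · have y1 := mem_cent_iff.1 hy
      by_cases y2 : y * t = t * y
      · exact h2 y y1 y2
      · have := h2 (y * x) (cm_mul y1 xz) (h.mul_comm_of_ne y1 xz tz y2 hxt)
        simpa using mul_mem this (inv_mem hxN)
    · rw [closure_le]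
      rintro y (rfl | rfl)
      · exact mem_cent_iff.2 tz
      · exact mem_cent_iff.2 xz
  rw [e]
  exact hD.nonempty_mulEquiv (by norm_num)

end SF

end H73.LX
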